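import Cfsg.Agent.J4F.Elv

/-! The Sylow `p`-normalisers of `J4` for `p = 29, 31, 37, 43` (helper3). -/

set_option autoImplicit false
set_option Elab.async false
set_option maxRecDepth 100000
set_option exponentiation.threshold 100000

namespace Cfsg.Agent.J4F
open Cfsg.Agent.Comp Cfsg.Agent.Golay Cfsg.Agent.J4T Cfsg.Agent.J4T.C
open Cfsg.Agent.Spor (ev getL genL genW basePt)
open Subgroup MulAction

section gen
variable {G : Type*} [Group G] [Finite G] {x y g : G} {p : ℕ}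

theorem not_dvd_index (hx : orderOf x = p) (h2 : ¬ p * p ∣ Nat.card G) : ¬ p ∣ (zpowers x).index := fun h =>
  h2 (by rw [← (zpowers x).card_mul_index, Nat.card_zpowers, hx]; exact Nat.mul_dvd_mul_left p h)

/-- Fusion in the centraliser of a Sylow subgroup `⟨x⟩` takes place in its normaliser. -/
theorem frat (hp : p.Prime) (hx : orderOf x = p) (h2 : ¬ p * p ∣ Nat.card G) (hy : Commute x y)
    (hy' : Commute x (g * y * g⁻¹)) : ∃ k ∈ normalizer (zpowers x : Set G), k * y * k⁻¹ = g * y * g⁻¹ := by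
  let D := centralizer ({g * y * g⁻¹} : Set G)
  have m1 : x ∈ D := mem_centralizer_singleton_iff.2 hy'
  have m2 : g * x * g⁻¹ ∈ D := mem_centralizer_singleton_iff.2 (by rw [conj_mul, conj_mul, hy.eq])
  obtain ⟨c, hc⟩ := pgrp_conj hp (H := zpowers (⟨x, m1⟩ : D)) (P := zpowers ⟨_, m2⟩)
    (not_dvd_index (by rw [← orderOf_coe, hx]) fun h => h2 (h.trans (card_subgroup_dvd_card D)))
    (.of_card (n := 1) (by rw [Nat.card_zpowers, ← orderOf_coe, pow_one, ← hx]; exact (MulAut.conj g).orderOf_eq x))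
  obtain ⟨j, hj⟩ := hc _ (mem_zpowers _)
  have e : x ^ j = c * g * x * (c * g)⁻¹ := by
    have := congrArg Subtype.val hj
    simp only [SubgroupClass.coe_zpow, coe_mul, coe_inv] at this
    rw [this]; group
  refine ⟨c * g, mem_normalizer_fintype ?_, ?_⟩
  · rintro _ ⟨i, rfl⟩
    exact ⟨j * i, by simp only [zpow_mul, e, conj_zpow]⟩
  · calc c * g * y * (c * g)⁻¹ = c * (g * y * g⁻¹) * (c : G)⁻¹ := by group
      _ = _ := by rw [mem_centralizer_singleton_iff.1 c.2, mul_inv_cancel_right]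

omit [Finite G] in
theorem conj_pow_pow {k : ℕ} (e : g * y * g⁻¹ = y ^ k) (n : ℕ) : g ^ n * y * (g ^ n)⁻¹ = y ^ k ^ n := by
  induction n with
  | zero => simp
  | succ n ih =>
    calc g ^ (n + 1) * y * (g ^ (n + 1))⁻¹ = g * (g ^ n * y * (g ^ n)⁻¹) * g⁻¹ := by group
      _ = _ := by rw [ih, ← conj_pow, e, ← pow_mul, pow_succ']

theorem dvd_norm (hp : p.Prime) (hx : orderOf x = p) (h2 : ¬ p * p ∣ Nat.card G) (hy : Commute x y) {r k m : ℕ}
    (ho : orderOf y = r) (e : g * y * g⁻¹ = y ^ k)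
    (h : 0 < m ∧ k ^ m % r = 1 % r ∧ ∀ j < m, k ^ j % r = 1 % r → j = 0) :
    m ∣ Nat.card (normalizer (zpowers x : Set G)) := by
  obtain ⟨u, hu, e'⟩ := frat hp hx h2 hy (e ▸ hy.pow_right k)
  refine Dvd.dvd.trans ?_ (Subgroup.orderOf_dvd_natCard _ hu)
  have h1 := conj_pow_pow (e'.trans e) (orderOf u)
  rw [pow_orderOf_eq_one, one_mul, inv_one, mul_one, eq_comm, ← pow_one y, ← pow_mul, one_mul, pow_eq_pow_iff_modEq, ho,
    ← Nat.div_add_mod (orderOf u) m, pow_add, pow_mul] at h1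
  refine Nat.dvd_of_mod_eq_zero (h.2.2 _ (Nat.mod_lt _ h.1) ?_)
  have h3 : (k ^ m) ^ (orderOf u / m) * k ^ (orderOf u % m) ≡ 1 ^ (orderOf u / m) * k ^ (orderOf u % m) [MOD r] :=
    (Nat.ModEq.pow _ h.2.1).mul_right _
  rw [one_pow, one_mul] at h3
  exact h3.symm.trans h1

theorem transfer (hp : p.Prime) (hx : orderOf x = p) (h2 : ¬ p * p ∣ Nat.card G) (hy : Commute x y) {r : ℕ}
    (hr : r.Prime) (h1 : r ∣ Nat.card (normalizer (zpowers y : Set G)))
    (h3 : ¬ r ∣ Nat.card (centralizer ({y} : Set G))) : r ∣ Nat.card (normalizer (zpowers x : Set G)) := by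
  haveI := Fact.mk hr
  obtain ⟨g, hg⟩ := exists_prime_orderOf_dvd_card' r h1
  obtain ⟨k, e⟩ := (mem_powers_iff_mem_zpowers.2 ((mem_normalizer_iff.1 g.2 y).1 (mem_zpowers y)) :)
  have e : y ^ k = g * y * (g : G)⁻¹ := e
  obtain ⟨u, hu, e'⟩ := frat hp hx h2 hy (e ▸ hy.pow_right k)
  refine Dvd.dvd.trans ?_ (Subgroup.orderOf_dvd_natCard _ hu)
  by_contra hn
  have h4 := conj_pow_pow (e'.trans e.symm) (orderOf u)
  rw [← conj_pow_pow e.symm, pow_orderOf_eq_one, one_mul, inv_one, mul_one, eq_comm, mul_inv_eq_iff_eq_mul] at h4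
  have h5 := Subgroup.orderOf_dvd_natCard _ (mem_centralizer_singleton_iff.2 h4)
  rw [Nat.Coprime.orderOf_pow (by rw [orderOf_coe, hg]; exact (Nat.Prime.coprime_iff_not_dvd hr).2 hn), orderOf_coe,
    hg] at h5
  exact h3 h5

theorem exists_comm (hp : p.Prime) (h : p ∣ Nat.card (centralizer ({x} : Set G))) :
    ∃ y, orderOf y = p ∧ Commute x y ∧ orderOf x ∣ Nat.card (centralizer ({y} : Set G)) := by
  haveI := Fact.mk hp
  obtain ⟨u, hu⟩ := exists_prime_orderOf_dvd_card' p h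
  have := (mem_centralizer_singleton_iff.1 u.2).symm
  exact ⟨u, by rw [orderOf_coe, hu], this, Subgroup.orderOf_dvd_natCard _ (mem_centralizer_singleton_iff.2 this)⟩

theorem conj_all (hp : p.Prime) (hx : orderOf x = p) (h2 : ¬ p * p ∣ Nat.card G) {k : ℕ} (e : g * x * g⁻¹ = x ^ k)
    (hy : orderOf y = p) : ∃ g, g * y * g⁻¹ = y ^ k := by
  obtain ⟨u, hu⟩ := pgrp_conj hp (P := zpowers y) (not_dvd_index hx h2)
    (.of_card (n := 1) (by rw [Nat.card_zpowers, pow_one, hy]))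
  obtain ⟨j, hj⟩ := hu y (mem_zpowers y)
  have hj : x ^ j = u * y * u⁻¹ := hj
  refine ⟨u⁻¹ * g * u, ?_⟩
  calc u⁻¹ * g * u * y * (u⁻¹ * g * u)⁻¹ = u⁻¹ * (g * (u * y * u⁻¹) * g⁻¹) * u := by group
    _ = u⁻¹ * (x ^ j) ^ k * u := by rw [← hj, ← conj_zpow, e, ← zpow_natCast, ← zpow_natCast, zpow_comm]
    _ = _ := by rw [hj, conj_pow]; group

end gen

def subp : List ℕ → List ℕ
  | [] => [1]
  | p :: l => subp l ++ (subp l).map (p * ·)

theorem mem_subp {l : List ℕ} (h : ∀ p ∈ l, p.Prime) {c : ℕ} (hc : c ∣ l.prod) : c ∈ subp l := by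
  induction l generalizing c with
  | nil => simpa [subp] using hc
  | cons p l ih =>
    obtain ⟨a, b, ha, hb, rfl⟩ := Nat.dvd_mul.1 hc
    have := ih (fun q hq => h q (.tail _ hq)) hb
    rcases (Nat.dvd_prime (h p (.head _))).1 ha with rfl | rfl
    · exact List.mem_append_left _ (by rwa [one_mul])
    · exact List.mem_append_right _ (List.mem_map.2 ⟨b, this, rfl⟩)

theorem conjK {y g p k : ℕ} (hp : p.Prime) (h2 : ¬ p * p ∣ 86775571046077562880)
    (h : band (band (okK y) (okK g)) (band (band (Nat.beq (pwc kmul kone y p) kone) (not (Nat.beq y kone)))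
      (Nat.beq (kmul g y) (kmul (pwc kmul kone y k) g))) = true) {x : J} (hx : orderOf x = p) :
    ∃ g, g * x * g⁻¹ = x ^ k := by
  rw [band_eq, band_eq, band_eq, Bool.and_eq_true, Bool.and_eq_true, Bool.and_eq_true] at h
  have h1 := RK_el h.1.1
  refine conj_all (x := ι (el y)) (g := ι (el g)) hp ((orderOf_injective ι ι_inj _).trans (mdK.order h1 hp h.2.1))
    (by rwa [cardJ]) ?_ hx
  rw [← map_inv, ← map_mul, ← map_mul, ← map_pow, mdK.semi h1 (mdK.pow h1 k) (RK_el h.1.2) h.2.2]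

theorem conj5 {x : J} (hx : orderOf x = 5) : ∃ g, g * x * g⁻¹ = x ^ 2 :=
  conjK (y := 2454503313698993205798290836187447987897) (g := 784958162757419662652607246390863724652) (by norm_num)
    (by norm_num) (by decide +kernel) hx

theorem conj7 {x : J} (hx : orderOf x = 7) : ∃ g, g * x * g⁻¹ = x ^ 2 :=
  conjK (y := 1953998668600487837639023617841949780970) (g := 4014836055162702643376548428717433686234) (by norm_num)
    (by norm_num) (by decide +kernel) hx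

theorem conj31 {x : J} (hx : orderOf x = 31) : ∃ g, g * x * g⁻¹ = x ^ 4 := by
  have h := mdJ.rw alJ [5, 11, 8, 13, 11, 6, 4, 8, 16, 21, 22, 24, 27, 1, 12, 7, 11, 1, 4, 1, 14, 16, 17, 20, 22, 23, 25]
  exact conj_all (by norm_num) (mdJ.order h (by norm_num) (by decide +kernel)) (by rw [cardJ]; norm_num)
    (mdJ.semi h (mdJ.pow h 4) (mdJ.rw alJ [15, 7, 9, 9, 4, 9, 4, 16, 17, 19, 20, 25, 27, 5, 13, 7, 14, 2, 11, 8, 10, 16,
      17, 18, 19, 21, 23, 25, 26]) (by decide +kernel)) hx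

def TL : List (ℕ × ℕ × ℕ) := [(29, 29, 28), (29, 1247, 2), (31, 31, 10), (31, 8029, 15), (31, 1430309, 15),
  (31, 5967841, 10), (37, 37, 12), (37, 1591, 2), (37, 46139, 9), (37, 55685, 36), (37, 63085, 4), (37, 7140815, 4),
  (37, 53432995, 36), (37, 9518706395, 4), (43, 43, 14), (43, 1247, 42), (43, 8729, 6)]

def cond (p c e : ℕ) : Prop := e ∣ p - 1 ∧ 86775571046077562880 / (c * e) % p = 1 ∧ c * e ∣ 86775571046077562880 ∧
  (5 ∣ c → 4 ∣ c * e) ∧ (7 ∣ c → 3 ∣ c * e) ∧ (11 ∣ c → 10 ∣ c * e) ∧ (31 ∣ c → 5 ∣ c * e)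

instance decCond (p c e : ℕ) : Decidable (cond p c e) := by unfold cond; infer_instance

theorem arith : ∀ p ∈ [29, 31, 37, 43], ∀ c ∈ subp [5, 7, 11, 11, 11, 29, 31, 37, 43], p ∣ c → ∀ e < p,
    cond p c e → (p, c, e) ∈ TL := by decide +kernel

variable (h3 : ∀ y : J, orderOf y = 3 → Nat.card (centralizer ({y} : Set J)) ∣ 2 ^ 13 * 3 * 887040)
include h3

theorem tabl {x : J} {p : ℕ} (hp : p ∈ [29, 31, 37, 43]) (hx : orderOf x = p) :
    ∃ c e, Nat.card (centralizer ({x} : Set J)) = c ∧ Nat.card (normalizer (zpowers x : Set J)) = c * e ∧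
      (p, c, e) ∈ TL := by
  have hh : p.Prime ∧ ¬ p * p ∣ 86775571046077562880 ∧ ¬ p ∣ 2 ^ 13 * 3 * 887040 ∧ ¬ p ∣ 23 ∧ ¬ p ∣ 121 * 12 ∧
      p ^ 1 ∣ 86775571046077562880 ∧ ¬ p ^ (1 + 1) ∣ 86775571046077562880 := by
    simp only [List.mem_cons, List.not_mem_nil, or_false] at hp
    rcases hp with rfl | rfl | rfl | rfl <;> norm_num
  obtain ⟨pp, h2, h4, h5, h6, h7, h8⟩ := hh
  haveI := Fact.mk pp
  rw [← cardJ] at h2
  have cx : Nat.card (zpowers x) = p := by rw [Nat.card_zpowers, hx]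
  obtain ⟨e, n, a1, a2, a3, a4⟩ := norm_of_selfc (Sylow.ofCard (zpowers x) (by rw [cx, factJ pp h7 h8, pow_one])) cx
  rw [Sylow.coe_ofCard, cent_zpowers] at a3 a4
  refine ⟨_, e, rfl, a4, ?_⟩
  have d2 := odd_centJ (x := x) (hx ▸ h4)
  have d3 : ¬ 3 ∣ Nat.card (centralizer ({x} : Set J)) := fun h =>
    let ⟨y, o, _, d⟩ := exists_comm Nat.prime_three h
    h4 (hx ▸ d.trans (h3 y o))
  have d23 : ¬ 23 ∣ Nat.card (centralizer ({x} : Set J)) := fun h => by
    obtain ⟨y, o, -, d⟩ := exists_comm fact23.out h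
    rw [cent23 o, Nat.card_zpowers, o, hx] at d
    exact h5 d
  have d0 : Nat.card (centralizer ({x} : Set J)) ∣ 2 ^ 21 * (3 ^ 3 * (23 * [5, 7, 11, 11, 11, 29, 31, 37, 43].prod)) :=
    (card_subgroup_dvd_card _).trans (dvd_of_eq cardJ)
  have cp : ∀ {q : ℕ} (k : ℕ), q.Prime → ¬ q ∣ Nat.card (centralizer ({x} : Set J)) →
      (Nat.card (centralizer ({x} : Set J))).Coprime (q ^ k) := fun k hq h =>
    ((Nat.Prime.coprime_iff_not_dvd hq).2 h).symm.pow_right k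
  have pos := Nat.card_pos (α := normalizer (zpowers x : Set J))
  rw [cardJ] at a3
  refine arith p hp _ (mem_subp (by norm_num) ((cp 1 fact23.out d23).dvd_of_dvd_mul_left
    ((cp 3 Nat.prime_three d3).dvd_of_dvd_mul_left ((cp 21 Nat.prime_two d2).dvd_of_dvd_mul_left d0))))
    (hx ▸ Subgroup.orderOf_dvd_natCard _ (mem_centralizer_singleton_iff.2 rfl)) e
    ((Nat.le_of_dvd (Nat.sub_pos_of_lt pp.one_lt) a1).trans_lt (Nat.sub_one_lt pp.ne_zero)) ⟨a1,
    by rw [← a3, Nat.mul_div_cancel _ (a4 ▸ pos), a2, Nat.mod_eq_of_lt pp.one_lt], Dvd.intro_left n a3,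
    fun h => ?_, fun h => ?_, fun h => ?_, fun h => ?_⟩
  · obtain ⟨y, o, c, -⟩ := exists_comm (by norm_num) h
    obtain ⟨g, e⟩ := conj5 o
    exact a4 ▸ dvd_norm pp hx h2 c o e (by decide)
  · obtain ⟨y, o, c, -⟩ := exists_comm (by norm_num) h
    obtain ⟨g, e⟩ := conj7 o
    exact a4 ▸ dvd_norm pp hx h2 c o e (by decide)
  · obtain ⟨y, o, c, d⟩ := exists_comm (by norm_num) h
    rcases eleven_cases o with e | e
    · obtain ⟨u, rfl⟩ := isConj_iff.1 e.symm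
      refine a4 ▸ dvd_norm (g := u * (ef * er) * u⁻¹) (k := 2) pp hx h2 c o ?_ (by decide)
      rw [conj_pow, ← fr_c]; group
    · obtain ⟨j, j0, j4, hj⟩ := cent_ea_eq
      rw [card_cent_conj e, hj, hx] at d
      exact absurd (d.trans (Nat.mul_dvd_mul_left _ (by interval_cases j <;> norm_num))) h6
  · obtain ⟨y, o, c, -⟩ := exists_comm (by norm_num) h
    obtain ⟨g, e⟩ := conj31 o
    exact a4 ▸ dvd_norm pp hx h2 c o e (by decide)

theorem big29 {x : J} (hx : orderOf x = 29) : Nat.card (centralizer ({x} : Set J)) = 29 ∧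
    Nat.card (normalizer (zpowers x : Set J)) = 29 * 28 := by
  obtain ⟨c, e, h1, h2, h⟩ := tabl h3 (by decide) hx
  have : c = 29 ∧ e = 28 ∨ c = 1247 ∧ e = 2 := by simpa [TL] using h
  rcases this with ⟨rfl, rfl⟩ | ⟨rfl, rfl⟩
  · exact ⟨h1, h2⟩
  obtain ⟨y, o, cm, d⟩ := exists_comm (x := x) (p := 43) (by norm_num) (by rw [h1]; norm_num)
  obtain ⟨c', e', k1, k2, k⟩ := tabl h3 (by decide) o
  have k : c' = 43 ∧ e' = 14 ∨ c' = 1247 ∧ e' = 42 ∨ c' = 8729 ∧ e' = 6 := by simpa [TL] using k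
  rw [hx, k1] at d
  have := transfer (r := 3) (by norm_num) hx (by rw [cardJ]; norm_num) cm Nat.prime_three
  rw [h2, k1, k2] at this
  rcases k with ⟨rfl, rfl⟩ | ⟨rfl, rfl⟩ | ⟨rfl, rfl⟩ <;> omega

theorem big43 {x : J} (hx : orderOf x = 43) : Nat.card (centralizer ({x} : Set J)) = 43 ∧
    Nat.card (normalizer (zpowers x : Set J)) = 43 * 14 := by
  obtain ⟨c, e, h1, h2, h⟩ := tabl h3 (by decide) hx
  have h29 : ¬ 29 ∣ c := fun h => by
    obtain ⟨y, o, -, d⟩ := exists_comm (by norm_num) (h1 ▸ h)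
    rw [hx, (big29 h3 o).1] at d; omega
  have k : c = 43 ∧ e = 14 ∨ c = 1247 ∧ e = 42 ∨ c = 8729 ∧ e = 6 := by simpa [TL] using h
  rcases k with ⟨rfl, rfl⟩ | ⟨rfl, rfl⟩ | ⟨rfl, rfl⟩
  exacts [⟨h1, h2⟩, by omega, by omega]

theorem big31 {x : J} (hx : orderOf x = 31) : Nat.card (centralizer ({x} : Set J)) = 31 ∧
    Nat.card (normalizer (zpowers x : Set J)) = 31 * 10 := by
  obtain ⟨c, e, h1, h2, h⟩ := tabl h3 (by decide) hx
  have h43 : ¬ 43 ∣ c := fun h => by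
    obtain ⟨y, o, -, d⟩ := exists_comm (by norm_num) (h1 ▸ h)
    rw [hx, (big43 h3 o).1] at d; omega
  have k : c = 31 ∧ e = 10 ∨ c = 8029 ∧ e = 15 ∨ c = 1430309 ∧ e = 15 ∨ c = 5967841 ∧ e = 10 := by simpa [TL] using h
  rcases k with ⟨rfl, rfl⟩ | ⟨rfl, rfl⟩ | ⟨rfl, rfl⟩ | ⟨rfl, rfl⟩
  · exact ⟨h1, h2⟩
  · obtain ⟨y, o, cm, d⟩ := exists_comm (x := x) (p := 37) (by norm_num) (by rw [h1]; norm_num)
    obtain ⟨c', e', k1, k2, k⟩ := tabl h3 (by decide) o
    rw [hx, k1] at d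
    have := transfer (r := 2) (by norm_num) hx (by rw [cardJ]; norm_num) cm Nat.prime_two
    rw [h2, k1, k2] at this
    simp only [TL, List.mem_cons, Prod.mk.injEq, List.not_mem_nil, or_false, OfNat.ofNat_eq_ofNat, Nat.reduceEqDiff,
      false_and, false_or, true_and] at k
    rcases k with ⟨rfl, rfl⟩ | ⟨rfl, rfl⟩ | ⟨rfl, rfl⟩ | ⟨rfl, rfl⟩ | ⟨rfl, rfl⟩ | ⟨rfl, rfl⟩ | ⟨rfl, rfl⟩ | ⟨rfl, rfl⟩ <;>
      omega
  all_goals omega

theorem big37 {x : J} (hx : orderOf x = 37) : Nat.card (centralizer ({x} : Set J)) = 37 ∧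
    Nat.card (normalizer (zpowers x : Set J)) = 37 * 12 := by
  obtain ⟨c, e, h1, h2, k⟩ := tabl h3 (by decide) hx
  have h43 : ¬ 43 ∣ c := fun h => by
    obtain ⟨y, o, -, d⟩ := exists_comm (by norm_num) (h1 ▸ h)
    rw [hx, (big43 h3 o).1] at d; omega
  have h29 : ¬ 29 ∣ c := fun h => by
    obtain ⟨y, o, -, d⟩ := exists_comm (by norm_num) (h1 ▸ h)
    rw [hx, (big29 h3 o).1] at d; omega
  have h31 : ¬ 31 ∣ c := fun h => by
    obtain ⟨y, o, -, d⟩ := exists_comm (by norm_num) (h1 ▸ h)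
    rw [hx, (big31 h3 o).1] at d; omega
  simp only [TL, List.mem_cons, Prod.mk.injEq, List.not_mem_nil, or_false, OfNat.ofNat_eq_ofNat, Nat.reduceEqDiff,
    false_and, false_or, true_and] at k
  rcases k with ⟨rfl, rfl⟩ | ⟨rfl, rfl⟩ | ⟨rfl, rfl⟩ | ⟨rfl, rfl⟩ | ⟨rfl, rfl⟩ | ⟨rfl, rfl⟩ | ⟨rfl, rfl⟩ | ⟨rfl, rfl⟩
  exacts [⟨h1, h2⟩, by omega, by omega, by omega, by omega, by omega, by omega, by omega]

omit h3 in
/-- Transfer to the Sylow subgroups of an isomorphic group. -/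
theorem syl_of {G : Type*} [Group G] [Finite G] (e : G ≃* J) {p n : ℕ} (hp : p.Prime)
    (h1 : p ^ 1 ∣ 86775571046077562880 ∧ ¬ p ^ (1 + 1) ∣ 86775571046077562880)
    (h : ∀ x : J, orderOf x = p → Nat.card (centralizer ({x} : Set J)) = p ∧
      Nat.card (normalizer (zpowers x : Set J)) = n) (U : Sylow p G) :
    centralizer ((U : Subgroup G) : Set G) = U ∧ Nat.card (normalizer ((U : Subgroup G) : Set G)) = n := by
  haveI := Fact.mk hp
  obtain ⟨x, hx, o⟩ := sylow_zpowers (by rw [Nat.card_congr e.toEquiv, factJ hp h1.1 h1.2]) U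
  obtain ⟨k1, k2⟩ := h (e x) (by rw [e.orderOf_eq, o])
  rw [← hx, cent_zpowers]
  refine ⟨(eq_of_le_of_card_ge (zpowers_le.2 (mem_centralizer_singleton_iff.2 rfl)) (le_of_eq ?_)).symm, ?_⟩
  · rw [Nat.card_zpowers, o, ← k1]
    refine Nat.card_congr (e.toEquiv.subtypeEquiv fun a => ?_)
    simp only [mem_centralizer_singleton_iff, MulEquiv.toEquiv_eq_coe, EquivLike.coe_coe, ← map_mul, e.apply_eq_iff_eq]
  · rw [← k2, ← card_map_of_injective (f := (e : G →* J)) e.injective]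
    exact congrArg (fun A : Subgroup J => Nat.card A) ((map_equiv_normalizer_eq _ e).trans (by
      rw [MulEquiv.toMonoidHom_eq_coe, MonoidHom.map_zpowers]; rfl))

omit h3 in
theorem big23 {x : J} (hx : orderOf x = 23) : Nat.card (centralizer ({x} : Set J)) = 23 ∧
    Nat.card (normalizer (zpowers x : Set J)) = 23 * 22 :=
  ⟨by rw [cent23 hx, Nat.card_zpowers, hx], (syl23 (Sylow.ofCard (zpowers x) (by
    rw [Nat.card_zpowers, hx, factJ (k := 1) (by norm_num) (by norm_num) (by norm_num), pow_one]))).2⟩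

end Cfsg.Agent.J4F
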