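import Cfsg.Agent.J4F.Two
import Cfsg.Agent.J4T.CV
import Cfsg.Agent.Spor.Cent
import Cfsg.Agent.Gen2.FixCount
import Cfsg.Agent.Perm.PrimeAddOne

/-! Elements of order 11 and 23 of `2^11:M24` in `J4`: fixed cosets, centralisers, `PGL(2,23)` (helper3). -/

set_option autoImplicit false
set_option maxRecDepth 100000
set_option exponentiation.threshold 100000

namespace Cfsg.Agent.J4F
open Cfsg.Agent.Comp Cfsg.Agent.Golay Cfsg.Agent.J4T Cfsg.Agent.J4T.C
open Cfsg.Agent.Spor (ev getL genL genW basePt)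
open Subgroup MulAction

section gen
variable {G X : Type*} [Group G] [Finite G] [MulAction G X]

/-- An element fixes at most `|C(t)|` points of an orbit. -/
theorem ncard_fix_orbit_le (t : G) (a : X) :
    (fixedBy X t ∩ orbit G a).ncard ≤ Nat.card (centralizer ({t} : Set G)) := by
  classical
  let F := ↥(fixedBy X t ∩ orbit G a)
  have ex : ∀ x : F, ∃ k : G, k • a = x.1 := fun x => x.2.2
  choose κ hκ using ex
  have m1 : ∀ (x : F) (s : stabilizer G a), (κ x * s)⁻¹ * t * (κ x * s) ∈ stabilizer G a := fun x s => by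
    rw [mem_stabilizer_iff, mul_smul, mul_smul, mul_smul, s.2, hκ, x.2.1, ← hκ, inv_smul_eq_iff, mul_smul, s.2]
  let rep : G → G := fun r => if h : ∃ k : G, k⁻¹ * t * k = r then h.choose else 1
  have hr : ∀ k : G, (rep (k⁻¹ * t * k))⁻¹ * t * rep (k⁻¹ * t * k) = k⁻¹ * t * k := fun k => by
    have h : ∃ k' : G, k'⁻¹ * t * k' = k⁻¹ * t * k := ⟨k, rfl⟩
    simp only [rep, dif_pos h]; exact h.choose_spec
  have m2 : ∀ k : G, k * (rep (k⁻¹ * t * k))⁻¹ ∈ centralizer ({t} : Set G) := fun k => by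
    rw [mem_centralizer_singleton_iff]
    have := hr k
    generalize rep (k⁻¹ * t * k) = r at this ⊢
    calc k * r⁻¹ * t = k * (r⁻¹ * t * r) * r⁻¹ := by group
      _ = _ := by rw [this]; group
  let f : F × stabilizer G a → stabilizer G a × centralizer ({t} : Set G) :=
    fun y => (⟨_, m1 y.1 y.2⟩, ⟨_, m2 (κ y.1 * y.2)⟩)
  have inj : Function.Injective f := fun y y' e => by
    have e1 : (κ y.1 * y.2)⁻¹ * t * (κ y.1 * y.2) = (κ y'.1 * y'.2)⁻¹ * t * (κ y'.1 * y'.2) :=
      congrArg (fun z => (z.1 : G)) e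
    have e2 : κ y.1 * y.2 * (rep ((κ y.1 * y.2)⁻¹ * t * (κ y.1 * y.2)))⁻¹ =
        κ y'.1 * y'.2 * (rep ((κ y'.1 * y'.2)⁻¹ * t * (κ y'.1 * y'.2)))⁻¹ := congrArg (fun z => (z.2 : G)) e
    rw [e1, mul_left_inj] at e2
    have e3 : y.1 = y'.1 := Subtype.ext (by
      have := congrArg (· • a) e2
      simp only [mul_smul, mem_stabilizer_iff.1 y.2.2, mem_stabilizer_iff.1 y'.2.2, hκ] at this
      exact this)
    exact Prod.ext e3 (Subtype.ext (by rw [e3, mul_right_inj] at e2; exact e2))
  have := Nat.card_le_card_of_injective f inj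
  rw [Nat.card_prod, Nat.card_prod, mul_comm] at this
  exact Nat.le_of_mul_le_mul_left this Nat.card_pos

/-- `|C(t)| ≤ fix(t) · |C(t) ∩ G_a|` for a fixed point `a`. -/
theorem card_cent_le_fix [Finite X] {t : G} {a : X} (h : t • a = a) :
    Nat.card (centralizer ({t} : Set G)) ≤
      (fixedBy X t).ncard * Nat.card ↥(centralizer ({t} : Set G) ⊓ stabilizer G a) := by
  have h1 := (stabilizer (centralizer ({t} : Set G)) a).index_mul_card
  rw [index_stabilizer] at h1
  rw [← h1]
  refine Nat.mul_le_mul (Set.ncard_le_ncard ?_) (le_of_eq ?_)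
  · rintro _ ⟨c, rfl⟩
    show t • (c : G) • a = (c : G) • a
    rw [← mul_smul, ← mem_centralizer_singleton_iff.1 c.2, mul_smul, h]
  · rw [← card_subgroupOf_eq]; rfl

omit [MulAction G X] in
theorem card_cent_conj {x y : G} (h : IsConj x y) :
    Nat.card (centralizer ({x} : Set G)) = Nat.card (centralizer ({y} : Set G)) := by
  obtain ⟨c, rfl⟩ := isConj_iff.1 h
  refine Nat.card_congr ((MulAut.conj c).toEquiv.subtypeEquiv fun a => ?_)
  simp only [mem_centralizer_singleton_iff, MulEquiv.toEquiv_eq_coe, EquivLike.coe_coe, MulAut.conj_apply, conj_mul]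
  exact ⟨fun e => by rw [e], fun e => by simpa using e⟩

omit [MulAction G X] in
/-- `|C(x)|` is odd unless some involution centraliser has order divisible by the order of `x`. -/
theorem odd_cent {x : G} (h : ∀ u : G, orderOf u = 2 → ¬ orderOf x ∣ Nat.card (centralizer ({u} : Set G))) :
    ¬ 2 ∣ Nat.card (centralizer ({x} : Set G)) := fun h2 => by
  obtain ⟨u, hu⟩ := exists_prime_orderOf_dvd_card' 2 h2
  exact h u (by rw [orderOf_coe, hu]) (Subgroup.orderOf_dvd_natCard _
    (mem_centralizer_singleton_iff.2 (mem_centralizer_singleton_iff.1 u.2).symm))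

omit [MulAction G X] in
theorem card_cent_le_hom {H : Type*} [Group H] [Finite H] (f : G →* H) (t : G) :
    Nat.card (centralizer ({t} : Set G)) ≤
      Nat.card ↥(f.ker ⊓ centralizer ({t} : Set G)) * Nat.card (centralizer ({f t} : Set H)) := by
  let g := f.domRestrict (centralizer ({t} : Set G))
  have h1 := g.ker.card_mul_index
  rw [index_ker] at h1
  rw [← h1]
  refine Nat.mul_le_mul (le_of_eq ?_) (card_le_of_le ?_)
  · rw [MonoidHom.ker_domRestrict, card_subgroupOf_eq, inf_comm]
  · rintro _ ⟨c, rfl⟩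
    rw [mem_centralizer_singleton_iff]
    show f c * f t = f t * f c
    rw [← map_mul, mem_centralizer_singleton_iff.1 c.2, map_mul]

omit [MulAction G X] in
/-- `|C_V(t)| ≡ |V|` for a normal subgroup `V`. -/
theorem card_inf_cent_modEq (V : Subgroup G) [hV : V.Normal] {p : ℕ} [Fact p.Prime] {t : G} (ht : t ^ p = 1) :
    Nat.card V ≡ Nat.card ↥(V ⊓ centralizer ({t} : Set G)) [MOD p] := by
  have := Gen2.ncard_modEq_inter_fixedBy (Ω := G) (p := p) (x := ConjAct.toConjAct t) (k := 1)
    (by rw [pow_one, ← map_pow, ht, map_one]) (V : Set G) fun b hb => hV.conj_mem b hb t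
  rw [← Nat.card_coe_set_eq, ← Nat.card_coe_set_eq] at this
  refine this.trans (congrArg (· % p) (Nat.card_congr (Equiv.setCongr (Set.ext fun a => ?_))))
  simp only [Set.mem_inter_iff, SetLike.mem_coe, mem_fixedBy, ConjAct.smul_def, ConjAct.ofConjAct_toConjAct, mem_inf,
    mem_centralizer_singleton_iff, mul_inv_eq_iff_eq_mul]
  exact and_congr_right fun _ => eq_comm

end gen

theorem cardMG : Nat.card MG = 244823040 := card_M24

theorem cent_inv_MG {u : MG} (h : orderOf u = 2) :
    Nat.card (centralizer ({u} : Set MG)) = 21504 ∨ Nat.card (centralizer ({u} : Set MG)) = 7680 := by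
  rcases inv_cases h with ⟨k, e⟩ | ⟨k, e⟩
  · exact .inl ((card_cent_conj (isConj_iff.2 ⟨k, e⟩)).symm.trans card_CA)
  · exact .inr ((card_cent_conj (isConj_iff.2 ⟨k, e⟩)).symm.trans card_CB)

theorem fix_lt_five {g : MG} (h : ¬ orderOf g ∣ 48) : (fixedBy GolayPt g).ncard < 5 := by
  by_contra hc
  obtain ⟨T, hT, hc⟩ := Set.exists_subset_card_eq (not_lt.1 hc)
  have hf := (Set.toFinite T)
  have h1 := TransOn.card_fixF trans5 Set.finite_univ (fun _ _ _ _ => trivial) (T := hf.toFinset)
    (by rw [← hc, Set.ncard_eq_toFinset_card T hf]) fun _ _ => trivial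
  rw [card_M24, ncard_univ_pt] at h1
  have h2 : Nat.card ↥(M24 ⊓ fixF (Equiv.Perm GolayPt) hf.toFinset) = 48 := by
    rw [show Nat.descFactorial 24 5 = 5100480 by decide] at h1; omega
  refine h ?_
  rw [← h2, ← orderOf_coe]
  exact Subgroup.orderOf_dvd_natCard _ ⟨g.2, mem_fixF.2 fun a ha => hT (hf.mem_toFinset.1 ha)⟩

theorem cent_MG {g : MG} {p : ℕ} (hp : p = 11 ∨ p = 23) (h : orderOf g = p) :
    Nat.card (centralizer ({g} : Set MG)) ≤ p := by
  have pp : p.Prime := by rcases hp with rfl | rfl <;> norm_num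
  haveI := Fact.mk pp
  have hg : g ^ p = 1 := h ▸ pow_orderOf_eq_one g
  have h1 := fix_lt_five (g := g) (by rcases hp with rfl | rfl <;> rw [h] <;> norm_num)
  have h2 := Gen2.card_modEq_ncard_fixedBy (Ω := GolayPt) (p := p) (x := g) (k := 1) (by rwa [pow_one])
  have c24 : Nat.card GolayPt = 24 := by rw [Nat.card_eq_fintype_card, card_pt]
  have hf : ∀ g : MG, fixedBy GolayPt g = Set.univ → g = 1 := fun g e =>
    Subtype.ext (Equiv.ext fun a => (e ▸ Set.mem_univ a : a ∈ fixedBy GolayPt g))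
  have h3 := odd_cent (x := g) fun u hu => by
    rcases cent_inv_MG hu with e | e <;> rcases hp with rfl | rfl <;> rw [e, h] <;> norm_num
  have h4 := card_subgroup_dvd_card (centralizer ({g} : Set MG))
  rw [cardMG] at h4
  rw [c24, Nat.ModEq] at h2
  rcases hp with rfl | rfl
  · have h5 := Gen2.card_cent_dvd_of_faithful hf hg (m := 2) (by omega)
    rw [show (fixedBy GolayPt g).ncard = 2 by omega] at h5
    have h6 : Nat.card (centralizer ({g} : Set MG)) ∣ 44 := Nat.dvd_gcd h4 h5
    have h7 : Nat.card (centralizer ({g} : Set MG)) ∣ 2 ^ 2 * 11 := h6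
    exact Nat.le_of_dvd (by norm_num) ((Nat.Coprime.pow_right 2
      ((Nat.Prime.coprime_iff_not_dvd Nat.prime_two).2 h3).symm).dvd_of_dvd_mul_left h7)
  · have h5 := Gen2.card_cent_dvd_of_faithful hf hg (m := 1) (by omega)
    rw [show (fixedBy GolayPt g).ncard = 1 by omega] at h5
    exact Nat.le_of_dvd (by norm_num) h5

theorem cent_VK {t : K} {p : ℕ} (hp : p = 11 ∨ p = 23) (h : orderOf t = p) :
    Nat.card ↥(V ⊓ centralizer ({t} : Set K)) ≤ if p = 11 then 2 else 1 := by
  have pp : p.Prime := by rcases hp with rfl | rfl <;> norm_num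
  haveI := Fact.mk pp
  have h1 := card_inf_cent_modEq V (p := p) (t := t) (h ▸ pow_orderOf_eq_one t)
  have h2 : Nat.card ↥(V ⊓ centralizer ({t} : Set K)) ∣ 2 ^ 11 := card_V ▸ card_dvd_of_le inf_le_left
  obtain ⟨a, ha, e⟩ := (Nat.dvd_prime_pow Nat.prime_two).1 h2
  have h3 : a ≠ 11 := fun h3 => by
    have e1 : V ⊓ centralizer ({t} : Set K) = V := eq_of_le_of_card_ge inf_le_left (by rw [e, h3, card_V])
    have e2 : t ∈ V := cent_V ▸ mem_centralizer_iff.2 fun v hv => mem_centralizer_singleton_iff.1 (e1.ge hv).2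
    have := order_π pp (by omega) h
    rw [π_V e2, orderOf_one] at this
    omega
  rw [e, cardV, Nat.ModEq] at h1
  rw [e]
  rcases hp with rfl | rfl <;> interval_cases a <;> simp_all

theorem cent_K {t : K} {p : ℕ} (hp : p = 11 ∨ p = 23) (h : orderOf t = p) :
    Nat.card (centralizer ({t} : Set K)) ≤ (if p = 11 then 2 else 1) * p := by
  have pp : p.Prime := by rcases hp with rfl | rfl <;> norm_num
  refine (card_cent_le_hom π t).trans (Nat.mul_le_mul ?_ (cent_MG hp (order_π pp (by omega) h)))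
  rw [ker_π]; exact cent_VK hp h

abbrev Om : Type := J ⧸ ι.range
noncomputable abbrev p0 : Om := basePt ι.range
noncomputable abbrev q6 : Om := d 6 • p0
noncomputable abbrev F6 : Subgroup K := Spor.Ct.Fd ι (d 6)

theorem card_Om : Nat.card Om = 173067389 := index_N0

theorem card_F6 : Nat.card F6 = 6072 := Spor.Ct.card_Fd orbs (by decide) cardK (by decide)

theorem fix_sub {t : K} {p : ℕ} (hp : p = 11 ∨ p = 23) (h : orderOf t = p) {x : Om} (hx : ι t • x = x) :
    x = p0 ∨ ∃ k : K, ι k • q6 = x := by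
  obtain ⟨i, hi, k, rfl⟩ := orbs.cover x
  have h1 : k⁻¹ * t * k ∈ Spor.Ct.Fd ι (d i) := by
    show ι (k⁻¹ * t * k) • d i • p0 = d i • p0
    rw [map_mul, map_mul, map_inv, mul_smul, mul_smul, inv_smul_eq_iff]; exact hx
  have h2 := Subgroup.orderOf_dvd_natCard _ h1
  rw [show orderOf (k⁻¹ * t * k) = p from h ▸ ((MulAut.conj k⁻¹).orderOf_eq t ▸ by simp)] at h2
  interval_cases i
  · left
    show ι k • d 0 • p0 = p0
    rw [d0, one_smul, Spor.smul_basePt_eq_iff]; exact ⟨k, rfl⟩
  · rw [Spor.Ct.card_Fd (n := 33030144) orbs (by decide) cardK (by decide)] at h2; rcases hp with rfl | rfl <;> omega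
  · rw [Spor.Ct.card_Fd (n := 147456) orbs (by decide) cardK (by decide)] at h2; rcases hp with rfl | rfl <;> omega
  · rw [Spor.Ct.card_Fd (n := 15360) orbs (by decide) cardK (by decide)] at h2; rcases hp with rfl | rfl <;> omega
  · rw [Spor.Ct.card_Fd (n := 17694720) orbs (by decide) cardK (by decide)] at h2; rcases hp with rfl | rfl <;> omega
  · rw [Spor.Ct.card_Fd (n := 9216) orbs (by decide) cardK (by decide)] at h2; rcases hp with rfl | rfl <;> omega
  · exact .inr ⟨k, rfl⟩

theorem fix_le {t : K} {p : ℕ} (hp : p = 11 ∨ p = 23) (h : orderOf t = p) :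
    (fixedBy Om (ι t)).ncard ≤ 1 + Nat.card (centralizer ({t} : Set K)) := by
  let _ := MulAction.compHom Om ι
  have h1 := ncard_fix_orbit_le (X := Om) t q6
  refine (Set.ncard_le_ncard (t := insert p0 (fixedBy Om t ∩ orbit K q6)) (fun x hx => ?_)).trans
    ((Set.ncard_insert_le _ _).trans (by omega))
  exact (fix_sub hp h hx).imp_right fun e => ⟨hx, e⟩

theorem card_cent_stab (t : K) : Nat.card ↥(centralizer ({ι t} : Set J) ⊓ stabilizer J p0) =
    Nat.card (centralizer ({t} : Set K)) := by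
  rw [← card_map_of_injective (f := ι) ι_inj]
  congr 2
  ext g
  rw [mem_inf, mem_stabilizer_iff, Spor.smul_basePt_eq_iff, mem_map, mem_centralizer_singleton_iff]
  constructor
  · rintro ⟨e, k, rfl⟩
    exact ⟨k, mem_centralizer_singleton_iff.2 (ι_inj (by rw [map_mul, map_mul, e])), rfl⟩
  · rintro ⟨k, e, rfl⟩
    exact ⟨by rw [← map_mul, mem_centralizer_singleton_iff.1 e, map_mul], k, rfl⟩

theorem ι_p0 (t : K) : ι t • p0 = p0 := (Spor.smul_basePt_eq_iff _ _).2 ⟨t, rfl⟩

/-- Elements of order 11 of `2^11:M24` have centraliser of order at most `506`. -/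
theorem cent11 {t : K} (h : orderOf t = 11) : Nat.card (centralizer ({ι t} : Set J)) ≤ 506 := by
  have h1 := card_cent_le_fix (ι_p0 t)
  have h2 := fix_le (.inl rfl) h
  have h3 := cent_K (.inl rfl) h
  rw [card_cent_stab] at h1
  exact h1.trans (Nat.mul_le_mul (h2.trans (by simp at h3; omega : _ ≤ 23)) (by simpa using h3 : _ ≤ 22))

theorem cent_inv {u : J} (h : orderOf u = 2) : Nat.card (centralizer ({u} : Set J)) ∣ 2 ^ 13 * 3 * 887040 := by
  rcases two_classes h with e | e
  · rw [← card_cent_conj e]; exact card_H0 ▸ dvd_rfl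
  · rw [← card_cent_conj e, card_cent_t0]; norm_num

/-- An element whose order does not divide `|C(z)|` has a centraliser of odd order. -/
theorem odd_centJ {x : J} (h : ¬ orderOf x ∣ 2 ^ 13 * 3 * 887040) : ¬ 2 ∣ Nat.card (centralizer ({x} : Set J)) :=
  odd_cent fun _ hu e => h (e.trans (cent_inv hu))

theorem fix23 {t : K} (h : orderOf t = 23) : (fixedBy Om (ι t)).ncard = 2 := by
  haveI : Fact (Nat.Prime 23) := ⟨by norm_num⟩
  have h2 := fix_le (.inr rfl) h
  have h3 := cent_K (.inr rfl) h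
  have h4 := Gen2.card_modEq_ncard_fixedBy (Ω := Om) (p := 23) (x := ι t) (k := 1)
    (by rw [pow_one, ← map_pow, ← h, pow_orderOf_eq_one, map_one])
  rw [card_Om, Nat.ModEq] at h4
  simp at h3
  omega

theorem cent23 {x : J} (h : orderOf x = 23) : centralizer ({x} : Set J) = zpowers x := by
  have h0 : zpowers x ≤ centralizer {x} := zpowers_le.2 (mem_centralizer_singleton_iff.2 rfl)
  refine (eq_of_le_of_card_ge h0 ?_).symm
  have h5 := odd_centJ (x := x) (by rw [h]; norm_num)
  have h6 := card_dvd_of_le h0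
  obtain ⟨t, ht, e⟩ := elt_conj' (by norm_num) (by norm_num) h
  rw [Nat.card_zpowers, h] at h6 ⊢
  have h1 := card_cent_le_fix (ι_p0 t)
  have h3 := cent_K (.inr rfl) ht
  rw [card_cent_stab, fix23 ht, card_cent_conj e] at h1
  simp at h3
  have h7 : Nat.card (centralizer ({x} : Set J)) ≤ 46 := h1.trans (by omega)
  have := Nat.card_pos (α := centralizer ({x} : Set J))
  omega

theorem sylow_zpowers {G : Type*} [Group G] [Finite G] {p : ℕ} [Fact p.Prime] (h : (Nat.card G).factorization p = 1)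
    (P : Sylow p G) : ∃ x : G, zpowers x = P ∧ orderOf x = p :=
  Gen2.exists_generator_of_card_prime (by rw [P.card_eq_multiplicity, h, pow_one])

theorem cent_zpowers {G : Type*} [Group G] (x : G) : centralizer (zpowers x : Set G) = centralizer {x} := by
  rw [zpowers_eq_closure, centralizer_closure]

theorem factJ {p k : ℕ} (hp : p.Prime) (h : p ^ k ∣ 86775571046077562880) (h' : ¬ p ^ (k + 1) ∣ 86775571046077562880) :
    (Nat.card J).factorization p = k := by
  rw [cardJ]
  exact le_antisymm (not_lt.1 fun e => h' ((hp.pow_dvd_iff_le_factorization (by norm_num)).2 e))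
    ((hp.pow_dvd_iff_le_factorization (by norm_num)).1 h)

/-- A self-centralising Sylow subgroup of prime order `p` has a normaliser of order `p e`, `e ∣ p - 1`, of index
`≡ 1 (mod p)`. -/
theorem norm_of_selfc {G : Type*} [Group G] [Finite G] {p : ℕ} [Fact p.Prime] (P : Sylow p G)
    (hP : Nat.card P = p) : ∃ e n, e ∣ p - 1 ∧ n % p = 1 % p ∧ n * (Nat.card (centralizer ((P : Subgroup G) : Set G)) * e)
      = Nat.card G ∧ Nat.card (normalizer ((P : Subgroup G) : Set G)) =
        Nat.card (centralizer ((P : Subgroup G) : Set G)) * e := by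
  have h1 := BG.card_mul_relIndex (centralizer_le_normalizer ((P : Subgroup G) : Set G))
  refine ⟨_, _, Gen2.relIndex_centralizer_dvd_sub_one hP, card_sylow_modEq_one p G, ?_, h1.symm⟩
  rw [h1, P.card_eq_index_normalizer]; exact index_mul_card _

instance fact23 : Fact (Nat.Prime 23) := ⟨by norm_num⟩

theorem syl23 (P : Sylow 23 J) : centralizer ((P : Subgroup J) : Set J) = P ∧
    Nat.card (normalizer ((P : Subgroup J) : Set J)) = 23 * 22 := by
  obtain ⟨x, hx, ho⟩ := sylow_zpowers (factJ (by norm_num) (by norm_num) (by norm_num)) P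
  have h1 : centralizer ((P : Subgroup J) : Set J) = P := by rw [← hx, cent_zpowers, cent23 ho]
  have h2 : Nat.card P = 23 := by rw [← hx, Nat.card_zpowers, ho]
  obtain ⟨e, n, h3, h4, h5, h6⟩ := norm_of_selfc P h2
  rw [h1, h2] at h5 h6
  rw [cardJ] at h5
  refine ⟨h1, ?_⟩
  have := Nat.le_of_dvd (by norm_num) h3
  interval_cases e <;> omega

theorem p0_ne : p0 ≠ q6 := fun e => by
  have : F6 = ⊤ := eq_top_iff.2 fun k _ => by
    show ι k • q6 = q6
    rw [← e, ι_p0]
  have h := card_F6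
  rw [this, card_top, cardK] at h
  omega

open Pointwise in
/-- The stabiliser of the pair of cosets fixed by an element of order 23 is `PGL(2,23)`. -/
theorem pgl : ∃ X : Subgroup J, Nonempty (X ≃* GL (Fin 2) (ZMod 23) ⧸ center (GL (Fin 2) (ZMod 23))) := by
  obtain ⟨t, ht⟩ := exists_prime_orderOf_dvd_card' (G := F6) 23 (by rw [card_F6]; norm_num)
  have ht' : orderOf (t : K) = 23 := by rw [orderOf_coe, ht]
  have hx : orderOf (ι t) = 23 := by rw [orderOf_injective ι ι_inj, ht']
  have hF : fixedBy Om (ι t) = {p0, q6} := (Set.eq_of_subset_of_ncard_le (by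
    rintro _ (rfl | rfl); exacts [ι_p0 _, t.2]) (by rw [fix23 ht', Set.ncard_pair p0_ne])).symm
  let X := stabilizer J ({p0, q6} : Set Om)
  have hP : IsPGroup 23 (zpowers (ι t)) := .of_card (n := 1) (by rw [Nat.card_zpowers, hx, pow_one])
  obtain ⟨P, hP⟩ := hP.exists_le_sylow
  obtain ⟨y, hy, ho⟩ := sylow_zpowers (factJ (by norm_num) (by norm_num) (by norm_num)) P
  have cP : Nat.card P = 23 := by rw [← hy, Nat.card_zpowers, ho]
  have eP : zpowers (ι t) = P := eq_of_le_of_card_ge hP (by rw [cP, Nat.card_zpowers, hx])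
  have hN : normalizer ((P : Subgroup J) : Set J) ≤ X := fun g hg => by
    have key : ∀ g ∈ normalizer ((P : Subgroup J) : Set J), ∀ a ∈ ({p0, q6} : Set Om), g • a ∈ ({p0, q6} : Set Om) := by
      intro g hg a ha
      rw [← hF] at ha ⊢
      have h1 : g⁻¹ * ι t * g ∈ zpowers (ι t) := by
        rw [eP]; exact (mem_normalizer_iff''.1 hg _).1 (eP ▸ mem_zpowers _)
      have h2 : zpowers (ι t) ≤ stabilizer J a := zpowers_le.2 ha
      have h3 : (g⁻¹ * ι t * g) • a = a := h2 h1
      rw [mul_smul, mul_smul, inv_smul_eq_iff] at h3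
      exact h3
    refine Set.Subset.antisymm ?_ fun a ha => ⟨g⁻¹ • a, key _ (inv_mem hg) a ha, smul_inv_smul ..⟩
    rintro _ ⟨a, ha, rfl⟩; exact key g hg a ha
  have hPX : (P : Subgroup J) ≤ X := le_normalizer.trans hN
  have h1 := (stabilizer X p0).index_mul_card
  have h2 : Nat.card (stabilizer X p0) = 6072 := by
    rw [← card_F6, ← card_map_of_injective (f := ι) ι_inj, ← card_map_of_injective (f := X.subtype) X.subtype_injective]
    congr 2
    ext g
    constructor
    · rintro ⟨g, hg, rfl⟩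
      have hg : (g : J) • p0 = p0 := hg
      obtain ⟨k, hk⟩ := (Spor.smul_basePt_eq_iff _ _).1 hg
      refine ⟨k, ?_, hk⟩
      show ι k • q6 = q6
      rw [hk]
      have : (g : J) • q6 ∈ ({p0, q6} : Set Om) := g.2 ▸ Set.smul_mem_smul_set (by simp)
      exact this.resolve_left fun e => p0_ne (smul_left_cancel (g : J) (hg.trans e.symm))
    · rintro ⟨k, hk, rfl⟩
      have hk : ι k • q6 = q6 := hk
      exact ⟨⟨ι k, by rw [mem_stabilizer_iff, Set.smul_set_insert, Set.smul_set_singleton, ι_p0, hk]⟩, ι_p0 k, rfl⟩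
  have h3 : (stabilizer X p0).index ≤ 2 := by
    rw [index_stabilizer, ← Set.ncard_pair p0_ne]
    refine Set.ncard_le_ncard ?_
    rintro _ ⟨g, rfl⟩
    have : (g : J) • p0 ∈ (g : J) • ({p0, q6} : Set Om) := Set.smul_mem_smul_set (by simp)
    rwa [mem_stabilizer_iff.1 g.2] at this
  let Q := P.subtype hPX
  have h4 : Nat.card (normalizer ((Q : Subgroup X) : Set X)) = 506 := by
    rw [Sylow.coe_subtype, ← subgroupOf_normalizer_eq hPX, Nat.card_congr (subgroupOfEquivOfLe hN).toEquiv]
    exact (syl23 P).2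
  have h5 : Nat.card (Sylow 23 X) * 506 = Nat.card X := by
    rw [Q.card_eq_index_normalizer, ← h4]; exact index_mul_card _
  have h6 : Nat.card (Sylow 23 X) % 23 = 1 := card_sylow_modEq_one 23 X
  have h7 := Nat.card_pos (α := X)
  rw [h2] at h1
  have h8 : Nat.card (Sylow 23 X) = 24 := by omega
  have cQ : Nat.card Q = 23 := by rw [Sylow.coe_subtype, Nat.card_congr (subgroupOfEquivOfLe hPX).toEquiv, cP]
  haveI : FaithfulSMul X (Sylow 23 X) := by
    rw [faithfulSMul_iff]
    intro a ha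
    let A := (toPermHom X (Sylow 23 X)).ker
    have hA : ∀ g, g ∈ A ↔ ∀ R : Sylow 23 X, g • R = R := fun g => by
      rw [MonoidHom.mem_ker, Equiv.ext_iff]; rfl
    have hb : A ⊓ Q = ⊥ := by
      rcases (Nat.dvd_prime (by norm_num : Nat.Prime 23)).1 (cQ ▸ card_dvd_of_le (inf_le_right (a := A))) with e | e
      · exact card_eq_one.1 e
      · have e1 : A ⊓ Q = Q := eq_of_le_of_card_ge inf_le_right (by rw [e, cQ])
        obtain ⟨u, hu, -⟩ := Gen2.exists_generator_of_card_prime cQ
        have e2 := Gen2.fixedBy_sylow_of_zpowers_eq hu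
        have e3 : fixedBy (Sylow 23 X) u = Set.univ :=
          Set.eq_univ_of_forall ((hA u).1 (e1.ge (hu ▸ mem_zpowers u)).1)
        have := congrArg Set.ncard (e2.symm.trans e3)
        rw [Set.ncard_singleton, Set.ncard_univ, h8] at this
        omega
    have ha' := (hA a).2 ha
    have hc : (a : J) ∈ centralizer ((P : Subgroup J) : Set J) := mem_centralizer_iff.2 fun u hu => by
      have : a * ⟨u, hPX hu⟩ * a⁻¹ * ⟨u, hPX hu⟩⁻¹ ∈ A ⊓ Q := ⟨by
        rw [mul_assoc, mul_assoc, ← mul_assoc _ a⁻¹]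
        exact mul_mem ha' ((toPermHom X (Sylow 23 X)).normal_ker.conj_mem _ (inv_mem ha') _),
        (Q : Subgroup X).mul_mem ((mem_normalizer_iff.1 (Sylow.smul_eq_iff_mem_normalizer.1 (ha Q)) _).1 hu) ((Q : Subgroup X).inv_mem hu)⟩
      rw [hb, mem_bot, mul_inv_eq_one, mul_inv_eq_iff_eq_mul] at this
      exact (congrArg Subtype.val this).symm
    rw [(syl23 P).1] at hc
    exact mem_bot.1 (hb ▸ ⟨ha', hc⟩)
  rcases Perm.classify_prime_add_one (G := X) (Ω := Sylow 23 X) (p := 23) (d := 22) (by norm_num) h8 (by omega)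
    (by norm_num) with h | h | ⟨q, -, h, -⟩
  · exact ⟨X, h.2⟩
  · omega
  · exact absurd (Nat.Prime.dvd_of_dvd_pow Nat.prime_three (h ▸ (by norm_num : 3 ∣ 23 + 1))) (by norm_num)

end Cfsg.Agent.J4F
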